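import Mathlib

set_option autoImplicit false

namespace Cfsg.Agent.Lib.Helper81.Kno

universe u

/-- the twisted sum `∑ j, ζ ^ (t a_j) φ_j(h)` -/
noncomputable def etaT {p : ℕ} (ζ : ℂ) {H : Type u} [Group H] {J : Type u} [Fintype J]
    (a : J → ZMod p) (φ : J → (H →* ℂˣ)) (t : ℕ) (h : H) : ℂ :=
  ∑ j, ζ ^ (t * (a j).val) * ((φ j h : ℂˣ) : ℂ)

/-- `Good p ζ c K`: there is a finite family of pairs (exponent mod `p`, linear character of `H`)
whose twisted sums have squared absolute value `c h`, and whose untwisted sum is `N` times the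
indicator of `K`, with `N` prime to `p`. -/
def Good (p : ℕ) (ζ : ℂ) {H : Type u} [Group H] (c : H → ℕ) (K : H → Prop) : Prop :=
  ∃ (J : Type u) (_ : Fintype J) (a : J → ZMod p) (φ : J → (H →* ℂˣ)) (N : ℕ),
    ¬ p ∣ N ∧ (∀ h, K h → etaT ζ a φ 0 h = N) ∧ (∀ h, ¬ K h → etaT ζ a φ 0 h = 0) ∧
      ∀ t : ℕ, ¬ p ∣ t → ∀ h, ‖etaT ζ a φ t h‖ ^ 2 = (c h : ℝ)

end Cfsg.Agent.Lib.Helper81.Kno
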