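import Cfsg.Agent.Lib.Helper81.Kno.Defs

set_option autoImplicit false

namespace Cfsg.Agent.Lib.Helper81.Kno

universe u

theorem good_one (p : ℕ) [Fact p.Prime] (ζ : ℂ) (H : Type u) [Group H] :
    Good p ζ (fun _ : H => 1) (fun _ => True) := by
  have hp : p.Prime := Fact.out
  refine ⟨PUnit, inferInstance, fun _ => 0, fun _ => 1, 1, ?_, ?_, ?_, ?_⟩
  · intro h; exact hp.one_lt.ne' (Nat.dvd_one.1 h)
  · intro h _; simp [etaT]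
  · intro h hh; exact absurd trivial hh
  · intro t _ h; simp [etaT]

theorem etaT_prod (p : ℕ) [Fact p.Prime] (ζ : ℂ) (hζ : ζ ^ p = 1) {H : Type u} [Group H]
    {J₁ J₂ : Type u} [Fintype J₁] [Fintype J₂] (a₁ : J₁ → ZMod p) (a₂ : J₂ → ZMod p)
    (φ₁ : J₁ → (H →* ℂˣ)) (φ₂ : J₂ → (H →* ℂˣ)) (t : ℕ) (h : H) :
    etaT ζ (fun j : J₁ × J₂ => a₁ j.1 + a₂ j.2) (fun j : J₁ × J₂ => φ₁ j.1 * φ₂ j.2) t h
      = etaT ζ a₁ φ₁ t h * etaT ζ a₂ φ₂ t h := by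
  simp only [etaT]
  rw [Finset.sum_mul_sum, Fintype.sum_prod_type]
  apply Finset.sum_congr rfl; intro i _
  apply Finset.sum_congr rfl; intro j _
  have h1 : ζ ^ (t * (a₁ i + a₂ j).val) = ζ ^ (t * (a₁ i).val) * ζ ^ (t * (a₂ j).val) := by
    rw [← pow_add, ← mul_add, ZMod.val_add, mul_comm t, mul_comm t, pow_mul, pow_mul]
    congr 1
    conv_rhs => rw [← Nat.mod_add_div ((a₁ i).val + (a₂ j).val) p]
    rw [pow_add, pow_mul, hζ, one_pow, mul_one]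
  rw [h1]
  simp only [MonoidHom.mul_apply, Units.val_mul]
  ring

theorem good_mul (p : ℕ) [Fact p.Prime] (ζ : ℂ) (hζ : ζ ^ p = 1) {H : Type u} [Group H]
    {c₁ c₂ : H → ℕ} {K₁ K₂ : H → Prop} (h₁ : Good p ζ c₁ K₁) (h₂ : Good p ζ c₂ K₂) :
    Good p ζ (fun h => c₁ h * c₂ h) (fun h => K₁ h ∧ K₂ h) := by
  have hp : p.Prime := Fact.out
  obtain ⟨J₁, _, a₁, φ₁, N₁, hN₁, hK₁, hK₁', hn₁⟩ := h₁
  obtain ⟨J₂, _, a₂, φ₂, N₂, hN₂, hK₂, hK₂', hn₂⟩ := h₂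
  refine ⟨J₁ × J₂, inferInstance, fun j => a₁ j.1 + a₂ j.2, fun j => φ₁ j.1 * φ₂ j.2, N₁ * N₂,
    ?_, ?_, ?_, ?_⟩
  · intro h
    rcases hp.dvd_mul.1 h with h | h
    · exact hN₁ h
    · exact hN₂ h
  · intro h hh
    rw [etaT_prod p ζ hζ, hK₁ h hh.1, hK₂ h hh.2]
    push_cast; rfl
  · intro h hh
    rw [etaT_prod p ζ hζ]
    by_cases h1 : K₁ h
    · have h2 : ¬ K₂ h := fun h2 => hh ⟨h1, h2⟩
      rw [hK₂' h h2, mul_zero]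
    · rw [hK₁' h h1, zero_mul]
  · intro t ht h
    rw [etaT_prod p ζ hζ, norm_mul, mul_pow, hn₁ t ht h, hn₂ t ht h]
    push_cast; rfl

end Cfsg.Agent.Lib.Helper81.Kno
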