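import Mathlib

set_option autoImplicit false

namespace Cfsg.Agent.Lib.Helper81.Kno

universe u

/-- conjugation action of a subgroup on the normal subgroup `V` -/
noncomputable def actV {X : Type u} [Group X] (V : Subgroup X) [V.Normal] (Hs : Subgroup X) :
    Hs →* MulAut V :=
  (MulAut.conjNormal (H := V)).comp Hs.subtype

theorem actV_apply {X : Type u} [Group X] (V : Subgroup X) [V.Normal] (Hs : Subgroup X) (h : Hs)
    (x : V) : ((actV V Hs h x : V) : X) = (h : X) * x * (h : X)⁻¹ := rfl

end Cfsg.Agent.Lib.Helper81.Kno
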