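import Cfsg.Agent.Lib.Helper81.Kno.Defs
import Cfsg.Agent.Lib.Helper4.BSWDual
import Cfsg.Agent.Lib.Helper83.Basic
import Cfsg.Agent.Lib.Helper20.CharOrth

set_option autoImplicit false
open Cfsg
open scoped ComplexConjugate

namespace Cfsg.Agent.Lib.Helper81.Kno

universe u

/-- a character pulled back to a finite abelian group is a sum of linear characters -/
theorem int_fourier {X : Type u} [Group X] {A : Type u} [CommGroup A] [Fintype A]
    [Fintype (A →* ℂˣ)] (f : A →* X) (χ : IrrCharacter X) :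
    ∃ n : (A →* ℂˣ) → ℕ, ∀ x : A,
      (χ : X → ℂ) (f x) = ∑ κ : A →* ℂˣ, (n κ : ℂ) * ((κ x : ℂˣ) : ℂ) := by
  have hch : IsCharacter A (fun x : A => (χ : X → ℂ) (f x)) :=
    Cfsg.Agent.Lib.Helper20.isCharacter_comp_hom
      (Cfsg.Agent.Lib.Helper20.isCharacter_of_isIrrCharacter χ.2) f
  have hn : ∀ κ : A →* ℂˣ, ∃ n : ℕ,
      classInner (fun x : A => (χ : X → ℂ) (f x)) (fun x => ((κ x : ℂˣ) : ℂ)) = n :=
    fun κ => Cfsg.Agent.Lib.Helper20.isCharacter_classInner_nat hch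
      (Cfsg.Agent.Lib.Helper83.isIrr_of_hom κ)
  choose n hn using hn
  refine ⟨n, fun x => ?_⟩
  rw [Cfsg.Agent.Lib.Helper4.BSW.dual_fourier (fun x : A => (χ : X → ℂ) (f x)) x, Finset.mul_sum]
  apply Finset.sum_congr rfl; intro κ _
  rw [← hn κ, classInner]
  ring

/-- orthogonality of linear characters -/
theorem int_orth {H : Type u} [Group H] [Fintype H] (μ ν : H →* ℂˣ) [Decidable (μ = ν)] :
    ∑ h : H, ((μ h : ℂˣ) : ℂ) * conj ((ν h : ℂˣ) : ℂ) = if μ = ν then (Nat.card H : ℂ) else 0 := by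
  have hnorm : ∀ h : H, ‖((ν h : ℂˣ) : ℂ)‖ = 1 := by
    intro h
    have h1 : ((ν h : ℂˣ) : ℂ) ^ (orderOf h) = 1 := by
      rw [← Units.val_pow_eq_pow_val, ← map_pow, pow_orderOf_eq_one]; simp
    exact Complex.norm_eq_one_of_pow_eq_one h1 (orderOf_pos h).ne'
  have hc : ∀ h : H, conj ((ν h : ℂˣ) : ℂ) = (((ν h)⁻¹ : ℂˣ) : ℂ) := by
    intro h
    rw [Units.val_inv_eq_inv_val, Complex.inv_eq_conj (hnorm h)]
  split_ifs with h
  · subst h
    rw [Finset.sum_congr rfl (fun h _ => by rw [hc h, ← Units.val_mul, mul_inv_cancel,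
      Units.val_one])]
    simp [Nat.card_eq_fintype_card]
  · obtain ⟨g, hg⟩ : ∃ g, μ g ≠ ν g := by
      by_contra hcon
      push Not at hcon
      exact h (MonoidHom.ext hcon)
    set S := ∑ h : H, ((μ h : ℂˣ) : ℂ) * conj ((ν h : ℂˣ) : ℂ) with hS
    have h1 : S = (((μ g * (ν g)⁻¹ : ℂˣ)) : ℂ) * S := by
      rw [hS, Finset.mul_sum, ← Equiv.sum_comp (Equiv.mulLeft g)]
      apply Finset.sum_congr rfl; intro x _
      simp only [Equiv.coe_mulLeft, hc, map_mul, mul_inv, Units.val_mul]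
      ring
    have h2 : (((μ g * (ν g)⁻¹ : ℂˣ)) : ℂ) ≠ 1 := by
      intro h3
      apply hg
      have : μ g * (ν g)⁻¹ = 1 := Units.ext h3
      exact mul_inv_eq_one.1 this
    have h3 : (1 - (((μ g * (ν g)⁻¹ : ℂˣ)) : ℂ)) * S = 0 := by
      rw [sub_mul, one_mul, ← h1, sub_self]
    rcases mul_eq_zero.1 h3 with h4 | h4
    · exact absurd (sub_eq_zero.1 h4).symm h2
    · exact h4

/-- the additive character `x ↦ ζ ^ x.val` -/
theorem int_e_sub (p : ℕ) [Fact p.Prime] (ζ : ℂ) (hζ : IsPrimitiveRoot ζ p) (b : ℕ) (a : ZMod p)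
    (t : ℕ) : ζ ^ (t * ((b : ZMod p) - a).val) = (ζ ^ b) ^ t * conj (ζ ^ (t * a.val)) := by
  have hp : p.Prime := Fact.out
  have hζn : ‖ζ‖ = 1 := hζ.norm'_eq_one hp.ne_zero
  have hζ0 : ζ ≠ 0 := hζ.ne_zero hp.ne_zero
  have hconj : conj ζ = ζ⁻¹ := (Complex.inv_eq_conj hζn).symm
  have hmod : ∀ m : ℕ, ζ ^ (m % p) = ζ ^ m := by
    intro m
    conv_rhs => rw [← Nat.mod_add_div m p]
    rw [pow_add, pow_mul, hζ.pow_eq_one, one_pow, mul_one]
  have h1 : ζ ^ ((b : ZMod p) - a).val * ζ ^ a.val = ζ ^ b := by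
    rw [← pow_add, ← hmod, ← ZMod.val_add, sub_add_cancel, ZMod.val_natCast, hmod]
  rw [map_pow, hconj, mul_comm t, pow_mul, mul_comm t, pow_mul, ← h1, mul_pow, inv_pow, inv_pow]
  have : (ζ ^ a.val) ^ t ≠ 0 := pow_ne_zero _ (pow_ne_zero _ hζ0)
  field_simp

theorem int_aux {X : Type u} [Group X] (p : ℕ) [Fact p.Prime] (ζ : ℂ)
    (hζ : IsPrimitiveRoot ζ p) {A : Type u} [CommGroup A] [Finite A] (f : A →* X)
    {H : Type u} [Group H] [Fintype H] (jH : H →* A) (w : A) (hw : w ^ p = 1)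
    {J : Type u} [Fintype J] (a : J → ZMod p) (φ : J → (H →* ℂˣ)) (χ : IrrCharacter X) :
    ∃ z : ZMod p → ℤ, ∀ t : ℕ,
      ∑ h : H, (χ : X → ℂ) (f (w ^ t * jH h)) * conj (etaT ζ a φ t h)
        = (Nat.card H : ℂ) * ∑ i : ZMod p, (z i : ℂ) * ζ ^ (t * i.val) := by
  classical
  have : Fintype A := Fintype.ofFinite _
  have : Finite (A →* ℂˣ) := by
    apply Nat.finite_of_card_ne_zero
    rw [Cfsg.Agent.Lib.Helper4.BSW.dual_card]
    exact Nat.card_pos.ne'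
  have : Fintype (A →* ℂˣ) := Fintype.ofFinite _
  obtain ⟨n, hn⟩ := int_fourier f χ
  have hb : ∀ κ : A →* ℂˣ, ∃ b : ℕ, ζ ^ b = ((κ w : ℂˣ) : ℂ) := by
    intro κ
    have h1 : ((κ w : ℂˣ) : ℂ) ^ p = 1 := by
      rw [← Units.val_pow_eq_pow_val, ← map_pow, hw]; simp
    obtain ⟨i, _, hi⟩ := hζ.eq_pow_of_pow_eq_one h1
    exact ⟨i, hi⟩
  choose b hb using hb
  refine ⟨fun i => ∑ κ : A →* ℂˣ, ∑ j : J,
    if κ.comp jH = φ j ∧ ((b κ : ZMod p) - a j = i) then (n κ : ℤ) else 0, fun t => ?_⟩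
  -- left hand side
  have hL : ∑ h : H, (χ : X → ℂ) (f (w ^ t * jH h)) * conj (etaT ζ a φ t h)
      = ∑ κ : A →* ℂˣ, ∑ j : J, (n κ : ℂ) * ((ζ ^ b κ) ^ t * conj (ζ ^ (t * (a j).val)))
          * (if κ.comp jH = φ j then (Nat.card H : ℂ) else 0) := by
    have h1 : ∀ h : H, (χ : X → ℂ) (f (w ^ t * jH h)) * conj (etaT ζ a φ t h)
        = ∑ κ : A →* ℂˣ, ∑ j : J, (n κ : ℂ) * ((ζ ^ b κ) ^ t * conj (ζ ^ (t * (a j).val)))
          * ((((κ.comp jH) h : ℂˣ) : ℂ) * conj ((φ j h : ℂˣ) : ℂ)) := by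
      intro h
      rw [hn, etaT, map_sum, Finset.sum_mul_sum]
      apply Finset.sum_congr rfl; intro κ _
      apply Finset.sum_congr rfl; intro j _
      rw [map_mul, map_pow, Units.val_mul, Units.val_pow_eq_pow_val, ← hb κ, map_mul]
      simp only [MonoidHom.comp_apply]
      ring
    rw [Finset.sum_congr rfl (fun h _ => h1 h), Finset.sum_comm]
    apply Finset.sum_congr rfl; intro κ _
    rw [Finset.sum_comm]
    apply Finset.sum_congr rfl; intro j _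
    rw [← Finset.mul_sum, int_orth]
  rw [hL]
  -- right hand side
  have hR : ∑ i : ZMod p, (((∑ κ : A →* ℂˣ, ∑ j : J,
      if κ.comp jH = φ j ∧ ((b κ : ZMod p) - a j = i) then (n κ : ℤ) else 0 : ℤ)) : ℂ)
        * ζ ^ (t * i.val)
      = ∑ κ : A →* ℂˣ, ∑ j : J, if κ.comp jH = φ j then
          (n κ : ℂ) * ζ ^ (t * ((b κ : ZMod p) - a j).val) else 0 := by
    push_cast
    simp_rw [Finset.sum_mul]
    rw [Finset.sum_comm]
    apply Finset.sum_congr rfl; intro κ _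
    rw [Finset.sum_comm]
    apply Finset.sum_congr rfl; intro j _
    rw [Finset.sum_eq_single ((b κ : ZMod p) - a j)]
    · by_cases h : κ.comp jH = φ j <;> simp [h]
    · intro i _ hi
      rw [if_neg (fun h => hi h.2.symm)]; simp
    · intro h; exact absurd (Finset.mem_univ _) h
  rw [hR, Finset.mul_sum]
  apply Finset.sum_congr rfl; intro κ _
  rw [Finset.mul_sum]
  apply Finset.sum_congr rfl; intro j _
  by_cases h : κ.comp jH = φ j
  · rw [if_pos h, if_pos h, int_e_sub p ζ hζ]; ring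
  · rw [if_neg h, if_neg h]; simp

theorem int_expand {X : Type u} [Group X] [Finite X] (p : ℕ) [Fact p.Prime] (ζ : ℂ)
    (hζ : IsPrimitiveRoot ζ p) (Hs : Subgroup X) [Fintype Hs]
    (hab : ∀ a ∈ Hs, ∀ b ∈ Hs, a * b = b * a) (v : X) (hv : v ^ p = 1)
    (hvH : ∀ h ∈ Hs, h * v = v * h) {J : Type u} [Fintype J] (a : J → ZMod p)
    (φ : J → (Hs →* ℂˣ)) (χ : IrrCharacter X) :
    ∃ z : ZMod p → ℤ, ∀ t : ℕ,
      ∑ h : Hs, (χ : X → ℂ) (v ^ t * h) * conj (etaT ζ a φ t h)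
        = (Nat.card Hs : ℂ) * ∑ i : ZMod p, (z i : ℂ) * ζ ^ (t * i.val) := by
  set k : Set X := (Hs : Set X) ∪ {v} with hk
  have hcomm : ∀ x ∈ k, ∀ y ∈ k, x * y = y * x := by
    rintro x (hx | hx) y (hy | hy)
    · exact hab x hx y hy
    · rw [Set.mem_singleton_iff.1 hy]; exact hvH x hx
    · rw [Set.mem_singleton_iff.1 hx]; exact (hvH y hy).symm
    · rw [Set.mem_singleton_iff.1 hx, Set.mem_singleton_iff.1 hy]
  letI : CommGroup (Subgroup.closure k) := Subgroup.closureCommGroupOfComm hcomm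
  have hle : Hs ≤ Subgroup.closure k := fun x hx => Subgroup.subset_closure (Or.inl hx)
  have hvk : v ∈ Subgroup.closure k := Subgroup.subset_closure (Or.inr rfl)
  exact int_aux p ζ hζ (A := Subgroup.closure k) (Subgroup.closure k).subtype
    (Subgroup.inclusion hle) ⟨v, hvk⟩ (Subtype.ext (by simpa using hv)) a φ χ

end Cfsg.Agent.Lib.Helper81.Kno
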