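import Cfsg.Agent.Lib.Helper81.Kno.Defs

set_option autoImplicit false
open scoped ComplexConjugate

namespace Cfsg.Agent.Lib.Helper81.Kno

theorem trace_int (p : ℕ) [Fact p.Prime] (z : ZMod p → ℤ) (hz : ¬ (p : ℤ) ∣ ∑ i, z i) :
    (p : ℤ) - 1 ≤ p * ∑ i, z i ^ 2 - (∑ i, z i) ^ 2 := by
  classical
  have hp : p.Prime := Fact.out
  have hcard : (Finset.univ : Finset (ZMod p)).card = p := by
    rw [Finset.card_univ, ZMod.card]
  set c := z 0
  set y : ZMod p → ℤ := fun i => z i - c with hy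
  have hzy : ∀ i, z i = y i + c := fun i => by simp [hy]
  have e1 : ∑ i, z i = ∑ i, y i + p * c := by
    rw [Finset.sum_congr rfl (fun i _ => hzy i), Finset.sum_add_distrib, Finset.sum_const, hcard]
    simp
  have e2 : ∑ i, z i ^ 2 = ∑ i, y i ^ 2 + 2 * c * ∑ i, y i + p * c ^ 2 := by
    rw [Finset.sum_congr rfl (fun i _ => by rw [hzy i, add_sq])]
    rw [Finset.sum_add_distrib, Finset.sum_add_distrib, Finset.sum_const, hcard, Finset.mul_sum]
    congr 1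
    · congr 1
      apply Finset.sum_congr rfl; intro i _; ring
  set T : Finset (ZMod p) := Finset.univ.filter (fun i => y i ≠ 0) with hT
  have hS : ∑ i, y i = ∑ i ∈ T, y i := by
    rw [hT, Finset.sum_filter]
    apply Finset.sum_congr rfl; intro i _
    by_cases h : y i = 0 <;> simp [h]
  have hQ : ∑ i, y i ^ 2 = ∑ i ∈ T, y i ^ 2 := by
    rw [hT, Finset.sum_filter]
    apply Finset.sum_congr rfl; intro i _
    by_cases h : y i = 0 <;> simp [h]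
  have hCS : (∑ i ∈ T, y i) ^ 2 ≤ (T.card : ℤ) * ∑ i ∈ T, y i ^ 2 := sq_sum_le_card_mul_sum_sq
  have hQT : (T.card : ℤ) ≤ ∑ i ∈ T, y i ^ 2 := by
    have : ∑ _i ∈ T, (1 : ℤ) ≤ ∑ i ∈ T, y i ^ 2 := by
      apply Finset.sum_le_sum
      intro i hi
      have hne : y i ≠ 0 := (Finset.mem_filter.1 hi).2
      have : 0 < y i ^ 2 := by positivity
      omega
    simpa using this
  have hT1 : 1 ≤ T.card := by
    rw [Nat.one_le_iff_ne_zero, Finset.card_ne_zero]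
    by_contra hne
    rw [Finset.not_nonempty_iff_eq_empty] at hne
    apply hz
    rw [e1, hS, hne]
    simp
  have hT2 : T.card ≤ p - 1 := by
    have h0 : (0 : ZMod p) ∉ T := by simp [hT, hy, c]
    have : T ⊆ Finset.univ.erase 0 := by
      intro i hi
      rw [Finset.mem_erase]
      exact ⟨fun h => h0 (h ▸ hi), Finset.mem_univ _⟩
    have h2 := Finset.card_le_card this
    rwa [Finset.card_erase_of_mem (Finset.mem_univ _), hcard] at h2
  have hp1 : 1 ≤ p := hp.one_le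
  set n : ℤ := (T.card : ℤ) with hn
  have hn1 : 1 ≤ n := by rw [hn]; exact_mod_cast hT1
  have hn2 : n ≤ (p : ℤ) - 1 := by
    rw [hn]; omega
  rw [e1, e2, hS, hQ]
  set Q := ∑ i ∈ T, y i ^ 2
  set S := ∑ i ∈ T, y i
  have h3 : ((p : ℤ) - n) * n ≤ ((p : ℤ) - n) * Q :=
    mul_le_mul_of_nonneg_left hQT (by linarith)
  nlinarith [mul_nonneg (by linarith : (0 : ℤ) ≤ n - 1) (by linarith : (0 : ℤ) ≤ (p : ℤ) - 1 - n)]

theorem trace_bound (p : ℕ) [Fact p.Prime] (ζ : ℂ) (hζ : IsPrimitiveRoot ζ p) (z : ZMod p → ℤ)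
    (hz : ¬ (p : ℤ) ∣ ∑ i, z i) :
    ((p : ℝ) - 1) ≤ ∑ t ∈ Finset.Ico 1 p, ‖∑ i : ZMod p, (z i : ℂ) * ζ ^ (t * i.val)‖ ^ 2 := by
  classical
  have hp : p.Prime := Fact.out
  have hζn : ‖ζ‖ = 1 := hζ.norm'_eq_one hp.ne_zero
  have hconj : conj ζ = ζ⁻¹ := by
    rw [Complex.inv_def, Complex.normSq_eq_norm_sq, hζn]; simp
  have hζ0 : ζ ≠ 0 := hζ.ne_zero hp.ne_zero
  -- the full sum
  have hfull : ((∑ t ∈ Finset.range p, ‖∑ i : ZMod p, (z i : ℂ) * ζ ^ (t * i.val)‖ ^ 2 : ℝ) : ℂ)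
      = (p : ℂ) * ∑ i, (z i : ℂ) ^ 2 := by
    push_cast
    have h1 : ∀ t : ℕ, ((‖∑ i : ZMod p, (z i : ℂ) * ζ ^ (t * i.val)‖ : ℂ)) ^ 2
        = ∑ i : ZMod p, ∑ j : ZMod p, ((z i : ℂ) * (z j : ℂ)) * (ζ ^ i.val * (ζ ^ j.val)⁻¹) ^ t := by
      intro t
      rw [← Complex.mul_conj', map_sum, Finset.sum_mul_sum]
      apply Finset.sum_congr rfl; intro i _
      apply Finset.sum_congr rfl; intro j _
      simp only [map_mul, map_pow, hconj, map_intCast]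
      rw [mul_pow, inv_pow, inv_pow, ← pow_mul, ← pow_mul, mul_comm i.val t, mul_comm j.val t]
      ring
    rw [Finset.sum_congr rfl (fun t _ => h1 t), Finset.sum_comm, Finset.mul_sum]
    apply Finset.sum_congr rfl; intro i _
    rw [Finset.sum_comm, Finset.sum_eq_single i]
    · rw [← Finset.mul_sum, mul_inv_cancel₀ (pow_ne_zero _ hζ0)]
      simp
      ring
    · intro j _ hji
      rw [← Finset.mul_sum]
      have hω : (ζ ^ i.val * (ζ ^ j.val)⁻¹) ^ p = 1 := by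
        rw [mul_pow, inv_pow, ← pow_mul, ← pow_mul, mul_comm i.val, mul_comm j.val, pow_mul,
          pow_mul, hζ.pow_eq_one]
        simp
      have hω1 : ζ ^ i.val * (ζ ^ j.val)⁻¹ ≠ 1 := by
        intro h
        have h2 : ζ ^ i.val = ζ ^ j.val := by
          field_simp at h
          exact h
        have h3 := hζ.pow_inj (ZMod.val_lt i) (ZMod.val_lt j) h2
        exact hji (ZMod.val_injective p h3).symm
      have hg : ∑ t ∈ Finset.range p, (ζ ^ i.val * (ζ ^ j.val)⁻¹) ^ t = 0 := by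
        have := mul_neg_geom_sum (ζ ^ i.val * (ζ ^ j.val)⁻¹) p
        rw [hω, sub_self] at this
        rcases mul_eq_zero.1 this with h | h
        · exact absurd (sub_eq_zero.1 h).symm hω1
        · exact h
      rw [hg, mul_zero]
    · intro h; exact absurd (Finset.mem_univ _) h
  have hsplit : ∑ t ∈ Finset.range p, ‖∑ i : ZMod p, (z i : ℂ) * ζ ^ (t * i.val)‖ ^ 2
      = ‖∑ i : ZMod p, (z i : ℂ) * ζ ^ (0 * i.val)‖ ^ 2
        + ∑ t ∈ Finset.Ico 1 p, ‖∑ i : ZMod p, (z i : ℂ) * ζ ^ (t * i.val)‖ ^ 2 := by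
    rw [Finset.range_eq_Ico, Finset.sum_eq_sum_Ico_succ_bot hp.pos]
  have h0 : ‖∑ i : ZMod p, (z i : ℂ) * ζ ^ (0 * i.val)‖ ^ 2 = (((∑ i, z i) ^ 2 : ℤ) : ℝ) := by
    simp only [zero_mul, pow_zero, mul_one]
    rw [← Int.cast_sum, Complex.norm_intCast]
    push_cast
    rw [sq_abs]
  have hfull' : ∑ t ∈ Finset.range p, ‖∑ i : ZMod p, (z i : ℂ) * ζ ^ (t * i.val)‖ ^ 2
      = (((p : ℤ) * ∑ i, z i ^ 2 : ℤ) : ℝ) := by
    have : ((∑ t ∈ Finset.range p, ‖∑ i : ZMod p, (z i : ℂ) * ζ ^ (t * i.val)‖ ^ 2 : ℝ) : ℂ)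
        = (((((p : ℤ) * ∑ i, z i ^ 2 : ℤ) : ℝ)) : ℂ) := by
      rw [hfull]; push_cast; rfl
    exact_mod_cast this
  have hI := trace_int p z hz
  have hI' : ((p : ℝ) - 1) ≤ (((p : ℤ) * ∑ i, z i ^ 2 : ℤ) : ℝ) - (((∑ i, z i) ^ 2 : ℤ) : ℝ) := by
    have : (((p : ℤ) - 1 : ℤ) : ℝ) ≤ (((p : ℤ) * ∑ i, z i ^ 2 - (∑ i, z i) ^ 2 : ℤ) : ℝ) := by
      exact_mod_cast hI
    push_cast at this ⊢
    linarith
  rw [← hfull', hsplit, h0] at hI'
  linarith

end Cfsg.Agent.Lib.Helper81.Kno
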