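import Cfsg.Agent.Lib.Helper81.Kno.ORTH
import Cfsg.Agent.Lib.Helper81.Kno.TRACE
import Cfsg.Agent.Lib.Helper81.Kno.INT
import Cfsg.Agent.Lib.Helper36.KnoGRP
import Cfsg.Agent.Lib.Helper36.KnoMOD
import Cfsg.Agent.Lib.Helper20.CharCount
import Cfsg.Agent.Lib.Helper60.CdTwo
import Cfsg.Agent.Lib.Helper81.Heights

set_option autoImplicit false
set_option linter.style.haveILetI false
open Cfsg
open scoped ComplexConjugate

namespace Cfsg.Agent.Lib.Helper81.Kno

universe u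

theorem knorr {X : Type u} [Group X] [Finite X] (p : ℕ) [Fact p.Prime] (V : Subgroup X) [V.Normal]
    (hVexp : ∀ v ∈ V, v ^ p = 1) (hidx : ¬ p ∣ V.index)
    (hself : Subgroup.centralizer (V : Set X) = V) (G : Subgroup X)
    (hGV : Subgroup.IsComplement' V G) (v : X) (hv : v ∈ V)
    (hab : ∀ a ∈ G ⊓ Subgroup.centralizer ({v} : Set X),
      ∀ b ∈ G ⊓ Subgroup.centralizer ({v} : Set X), a * b = b * a) :
    Nat.card (ConjClasses X) ≤ Nat.card V := by
  classical
  have hp : p.Prime := Fact.out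
  have : Finite (IrrCharacter X) := Cfsg.Agent.Lib.Helper82.finite_irrCharacter
  have : Fintype (IrrCharacter X) := Fintype.ofFinite _
  have : Fintype X := Fintype.ofFinite _
  set Hs : Subgroup X := G ⊓ Subgroup.centralizer ({v} : Set X) with hHs
  have : Fintype Hs := Fintype.ofFinite _
  have hHG : Hs ≤ G := inf_le_left
  obtain ⟨ζ, hζ⟩ : ∃ ζ : ℂ, IsPrimitiveRoot ζ p :=
    ⟨_, Complex.isPrimitiveRoot_exp p hp.ne_zero⟩
  have hVc : ∀ a b : V, a * b = b * a := by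
    intro a b
    have hb : (b : X) ∈ Subgroup.centralizer (V : Set X) := by rw [hself]; exact b.2
    apply Subtype.ext
    exact ((Subgroup.mem_centralizer_iff.1 hb) a a.2)
  letI : CommGroup V := { (inferInstance : Group V) with mul_comm := hVc }
  obtain ⟨c, hc, J, hJ, a, φ, N, hN, hK1, hK0, hnorm⟩ :=
    good_of_action p ζ hζ (H := Hs) (fun a b => Subtype.ext (hab a a.2 b b.2))
      (grp_coprime p V hidx G hGV Hs hHG) (V := V)
      (fun x => Subtype.ext (by simpa using hVexp x x.2)) (actV V Hs)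
  -- the sums
  set cT : ℕ → IrrCharacter X → ℂ := fun t χ =>
    ∑ h : Hs, (χ : X → ℂ) (v ^ t * h) * conj (etaT ζ a φ t h) with hcT
  have hcardH : (0 : ℝ) < Nat.card Hs := by exact_mod_cast Nat.card_pos
  -- column orthogonality
  have h1 : ∀ t ∈ Finset.Ico 1 p, ∑ χ : IrrCharacter X, ‖cT t χ‖ ^ 2
      = (Nat.card Hs : ℝ) ^ 2 * Nat.card V := by
    intro t ht
    have htp : ¬ p ∣ t := by
      rw [Finset.mem_Ico] at ht
      exact Nat.not_dvd_of_pos_of_lt (by omega) ht.2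
    rw [orth (fun h : Hs => v ^ t * (h : X))
      (fun i j hij => grp_conj p V hVexp hidx hself G hGV v hv hab t htp i j hij)
      (fun h => etaT ζ a φ t h)]
    have : ∀ h : Hs, ‖etaT ζ a φ t h‖ ^ 2
        * (Nat.card (Subgroup.centralizer ({v ^ t * (h : X)} : Set X)) : ℝ)
        = (Nat.card Hs : ℝ) * Nat.card V := by
      intro h
      rw [hnorm t htp h, grp_card p V hVexp hidx hself G hGV v hv hab t htp h, ← hc h]
      push_cast
      ring
    rw [Finset.sum_congr rfl (fun h _ => this h), Finset.sum_const, Finset.card_univ,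
      ← Nat.card_eq_fintype_card]
    simp only [nsmul_eq_mul]
    ring
  -- integrality
  have h2 : ∀ χ : IrrCharacter X, (Nat.card Hs : ℝ) ^ 2 * ((p : ℝ) - 1)
      ≤ ∑ t ∈ Finset.Ico 1 p, ‖cT t χ‖ ^ 2 := by
    intro χ
    obtain ⟨z, hz⟩ := int_expand p ζ hζ Hs hab v (hVexp v hv)
      (fun h hh => by
        have := (Subgroup.mem_centralizer_iff.1 hh.2) v (Set.mem_singleton v)
        exact this.symm) a φ χ
    have hz0 := hz 0
    have hsum0 : ∑ h : Hs, (χ : X → ℂ) (v ^ 0 * h) * conj (etaT ζ a φ 0 h)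
        = (χ : X → ℂ) 1 * (N : ℂ) := by
      rw [Finset.sum_eq_single (1 : Hs)]
      · rw [hK1 1 (map_one _)]; simp
      · intro h _ hne
        rw [hK0 h (fun hh => hne (grp_faithful V hself G hGV Hs hHG h hh))]; simp
      · intro h; exact absurd (Finset.mem_univ _) h
    have hint : ((Nat.card Hs : ℤ) * ∑ i, z i) = (charDegree (χ : X → ℂ) : ℤ) * (N : ℤ) := by
      have : (((Nat.card Hs : ℤ) * ∑ i, z i : ℤ) : ℂ)
          = (((charDegree (χ : X → ℂ) : ℤ) * (N : ℤ) : ℤ) : ℂ) := by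
        push_cast
        rw [← Cfsg.Agent.Lib.Helper81.irr_one_eq χ, ← hsum0, hz0]
        simp
      exact_mod_cast this
    have hnd : ¬ (p : ℤ) ∣ ∑ i, z i := by
      intro hd
      have h3 : (p : ℤ) ∣ (charDegree (χ : X → ℂ) : ℤ) * (N : ℤ) := by
        rw [← hint]; exact Dvd.dvd.mul_left hd _
      have h4 : p ∣ charDegree (χ : X → ℂ) * N := by exact_mod_cast h3
      rcases hp.dvd_mul.1 h4 with h5 | h5
      · exact hidx (h5.trans (Cfsg.Agent.Lib.Helper60.Cd.ito V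
          (fun a ha b hb => congrArg Subtype.val (hVc ⟨a, ha⟩ ⟨b, hb⟩)) χ))
      · exact hN h5
    have h5 := trace_bound p ζ hζ z hnd
    have h6 : ∀ t, ‖cT t χ‖ ^ 2
        = (Nat.card Hs : ℝ) ^ 2 * ‖∑ i : ZMod p, (z i : ℂ) * ζ ^ (t * i.val)‖ ^ 2 := by
      intro t
      simp only [hcT]
      rw [hz t, norm_mul, mul_pow]
      simp
    rw [Finset.sum_congr rfl (fun t _ => h6 t), ← Finset.mul_sum]
    exact mul_le_mul_of_nonneg_left h5 (by positivity)
  -- count
  have h3 : ∑ t ∈ Finset.Ico 1 p, ∑ χ : IrrCharacter X, ‖cT t χ‖ ^ 2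
      = ((p : ℝ) - 1) * ((Nat.card Hs : ℝ) ^ 2 * Nat.card V) := by
    rw [Finset.sum_congr rfl h1, Finset.sum_const, Nat.card_Ico, nsmul_eq_mul,
      Nat.cast_sub hp.one_le]
    simp
  rw [Finset.sum_comm] at h3
  have h4 : (Fintype.card (IrrCharacter X) : ℝ) * ((Nat.card Hs : ℝ) ^ 2 * ((p : ℝ) - 1))
      ≤ ((p : ℝ) - 1) * ((Nat.card Hs : ℝ) ^ 2 * Nat.card V) := by
    rw [← h3]
    calc (Fintype.card (IrrCharacter X) : ℝ) * ((Nat.card Hs : ℝ) ^ 2 * ((p : ℝ) - 1))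
        = ∑ _χ : IrrCharacter X, ((Nat.card Hs : ℝ) ^ 2 * ((p : ℝ) - 1)) := by
          rw [Finset.sum_const, Finset.card_univ, nsmul_eq_mul]
      _ ≤ _ := Finset.sum_le_sum (fun χ _ => h2 χ)
  have hp1 : (0 : ℝ) < (p : ℝ) - 1 := by
    have : (1 : ℝ) < p := by exact_mod_cast hp.one_lt
    linarith
  have h5 : (Fintype.card (IrrCharacter X) : ℝ) ≤ Nat.card V := by
    have hpos : (0 : ℝ) < (Nat.card Hs : ℝ) ^ 2 * ((p : ℝ) - 1) := by positivity
    have : (Fintype.card (IrrCharacter X) : ℝ) * ((Nat.card Hs : ℝ) ^ 2 * ((p : ℝ) - 1))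
        ≤ (Nat.card V : ℝ) * ((Nat.card Hs : ℝ) ^ 2 * ((p : ℝ) - 1)) := by
      calc _ ≤ _ := h4
        _ = _ := by ring
    exact le_of_mul_le_mul_right this hpos
  rw [← Cfsg.Agent.Lib.Helper20.card_irrCharacter, Nat.card_eq_fintype_card]
  exact_mod_cast h5

end Cfsg.Agent.Lib.Helper81.Kno
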