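import Cfsg.Agent.Lib.Helper81.Kno.Defs
import Cfsg.Agent.Lib.Helper82.Ortho

set_option autoImplicit false
open Cfsg
open scoped ComplexConjugate

namespace Cfsg.Agent.Lib.Helper81.Kno

universe u v

theorem orth {X : Type u} [Group X] [Finite X] [Fintype (IrrCharacter X)] {ι : Type v} [Fintype ι]
    (s : ι → X) (hs : ∀ i j, IsConj (s i) (s j) → i = j) (f : ι → ℂ) :
    ∑ χ : IrrCharacter X, ‖∑ i, (χ : X → ℂ) (s i) * conj (f i)‖ ^ 2
      = ∑ i, ‖f i‖ ^ 2 * (Nat.card (Subgroup.centralizer ({s i} : Set X)) : ℝ) := by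
  classical
  have key : ((∑ χ : IrrCharacter X, ‖∑ i, (χ : X → ℂ) (s i) * conj (f i)‖ ^ 2 : ℝ) : ℂ)
      = ((∑ i, ‖f i‖ ^ 2 * (Nat.card (Subgroup.centralizer ({s i} : Set X)) : ℝ) : ℝ) : ℂ) := by
    push_cast
    have h1 : ∀ χ : IrrCharacter X, ((‖∑ i, (χ : X → ℂ) (s i) * conj (f i)‖ : ℂ)) ^ 2
        = ∑ i, ∑ j, (conj (f i) * f j) * ((χ : X → ℂ) (s i) * conj ((χ : X → ℂ) (s j))) := by
      intro χ
      rw [← Complex.mul_conj', map_sum, Finset.sum_mul_sum]
      apply Finset.sum_congr rfl; intro i _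
      apply Finset.sum_congr rfl; intro j _
      simp only [map_mul, Complex.conj_conj]
      ring
    rw [Finset.sum_congr rfl (fun χ _ => h1 χ), Finset.sum_comm]
    apply Finset.sum_congr rfl; intro i _
    rw [Finset.sum_comm, Finset.sum_eq_single i]
    · rw [← Finset.mul_sum, ← finsum_eq_sum_of_fintype,
        Cfsg.Agent.Lib.Helper82.finsum_irr_mul_conj_self, ← Complex.mul_conj']
      ring
    · intro j _ hji
      rw [← Finset.mul_sum, ← finsum_eq_sum_of_fintype,
        Cfsg.Agent.Lib.Helper82.finsum_irr_mul_conj_of_not_isConj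
          (fun h => hji (hs i j h).symm), mul_zero]
    · intro h; exact absurd (Finset.mem_univ _) h
  exact_mod_cast key

end Cfsg.Agent.Lib.Helper81.Kno
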